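import Cfsg.Agent.H203.IF.TE6Idx
import Cfsg.Agent.H752.RowTw
import Cfsg.Agent.H83.TwESix

/-!
# S5719, `²E₆(q)`, `q` even: the index of the parabolic subgroup of `ρ`, involutions lie in the radical (helper24)

* `index_PP` : `|²E₆(q) : P| ≤ 2 q^21` for the parabolic subgroup of the highest root;
* `rep_Q` : for `q` even every involution is conjugate to an element of the unipotent radical.
-/

set_option autoImplicit false
set_option linter.unusedSectionVars false
set_option maxHeartbeats 400000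

namespace Cfsg.Agent.H24.TE

open CoxeterSystem Cfsg.Agent.ChevalleyStructure.CoxeterGeom Cfsg.Agent.Tits.Roots Cfsg.Agent.Tits.Core
  Cfsg.Agent.Tits.RootComb Cfsg.Agent.Nodes.Comb Cfsg.Agent.Nodes.Reps Cfsg.Agent.Nodes.BNOf
  Cfsg.Agent.Nodes.BNOf.RGD Cfsg.Agent.Nodes.StabComb Cfsg.Agent.Nodes.LeviDec
  Cfsg.Agent.Nodes.RGDTwGen Cfsg.Agent.Nodes.RGDChev Cfsg.Agent.Nodes.RGDFold
  Cfsg.Agent.Nodes.RGDFoldSL Cfsg.Agent.Nodes.RGDTwE6 Cfsg.Agent.Nodes.Bruhat
open Cfsg.Agent.KFacts.RgdOpp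
open Cfsg.Agent.KFacts.RgdRigid (GG_eq_top)
open Cfsg.Lie Cfsg.Agent.ChevalleyStructure
open Cfsg.Agent.KFacts.TwESix.Comb (bf rts mem_rts rho)
open Cfsg.Agent.H752.RgdIdx Cfsg.Agent.H752.RowTw
open Cfsg.Agent.H430.CfChev (carry sum_le)

variable {K : Type} [Field K] [Fintype K] {q : ℕ} {φ : K →+* K} (hφ : ∀ x, φ x = x ^ q)
  (hqq : ∀ t : K, (t ^ q) ^ q = t) {W : Type*} [Group W] (cs : CoxeterSystem CoxeterMatrix.F₄ W)

include hφ hqq in
/-- **the index** -/
theorem index_PP (hq : 2 ≤ q) (hK : Fintype.card K = q ^ 2) :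
    (PJ cs isCartan (T K q) (X φ q) (orth cs isCartan rho)).index ≤ 2 * q ^ 21 := by
  obtain ⟨p, hp⟩ := CharP.exists K
  have hpf : Fact p.Prime := ⟨CharP.char_is_prime K p⟩
  have hW : Finite W := Cfsg.Agent.KFacts.TwESix.Comb.finiteW cs
  have R := Cfsg.Agent.Nodes.RGDTwE6.rgd cs hφ hqq p
  have hG1 := Cfsg.Agent.KFacts.TwESix.OutTwo.G1_top cs hφ hqq
  have hG := GG_eq_top (T := T K q) hG1
  have hfG : Finite ↥(twistedE6 K q) := inferInstance
  have hX : ∀ i, Nat.card ↥(X φ q (sr i)) = q ^ (![1, 1, 2, 2] : Fin 4 → ℕ) i := by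
    intro i
    rw [Cfsg.Agent.H203.IF.TE6.card_X hφ hqq hq hK (isRoot_sr cs isCartan i)]
    congr 1
    fin_cases i <;> decide +kernel
  have hq0 : 0 < q := by omega
  refine (index_PJ_le R hG hq0 (e := ![1, 1, 2, 2]) (by decide) hX domE distE).trans ?_
  have h1 : ((tabE.map Prod.fst).map fun r => q ^ look tabE r) =
      [0, 1, 2, 4, 5, 6, 6, 7, 8, 9, 10, 10, 11, 11, 12, 13, 14, 15, 15, 16, 17, 19, 20, 21].map fun x => q ^ x := by
    rw [show [0, 1, 2, 4, 5, 6, 6, 7, 8, 9, 10, 10, 11, 11, 12, 13, 14, 15, 15, 16, 17, 19, 20, 21] =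
      (tabE.map Prod.fst).map (look tabE) by decide +kernel, List.map_map]
    rfl
  rw [h1]
  exact (sum_le (by omega) _ 21 (by decide)).trans (Nat.mul_le_mul_right _ (by decide +kernel))

/-! ### The involutions -/

theorem mem_VJ {z : Fin 4 → ℤ} (hz : z ∈ rts) (h0 : 0 < z 0) (hn : ∀ i, 0 ≤ z i) {g : ↥(twistedE6 K q)} (hg : g ∈ X φ q z) :
    g ∈ VJ cs isCartan (X φ q) (orth cs isCartan rho) := by
  refine RGD.le_Sup (X := X φ q) (z := z) ?_ hg
  refine ⟨(mem_rts cs).2 hz, hn, 0, ?_, h0⟩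
  rw [mem_orth]
  decide +kernel

/-- the relative root of a list of roots -/
theorem mem_X_of {o : List ℕ} {z : Fin 4 → ℤ} (ho : ∀ k ∈ o, k < chevE6.nroots ∧ V chevE6 J k = z)
    {g : ↥(twistedE6 K q)} (hf : (g : GL chevE6.Idx K) ∈ TwE6Basic.fix φ)
    (hg : (g : GL chevE6.Idx K) = H83.ChevInv.PX hp.inList K o) : g ∈ X φ q z := by
  show (g : GL chevE6.Idx K) ∈ R chevE6 hp K J (TwE6Basic.sg φ) z
  refine ⟨?_, hf⟩
  rw [hg]
  clear hg hf
  induction o with
  | nil => exact one_mem _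
  | cons r L ih =>
    rw [H83.ChevInv.PX_cons]
    refine mul_mem ?_ (ih fun k hk => ho k (List.mem_cons_of_mem _ hk))
    have h1 : Elts.xG (F := K) hp.inList r 1 ∈ TwistedU.rspan (Elts.xG (F := K) hp.inList)
        {k | k < chevE6.nroots ∧ V chevE6 J k = z} := TwistedU.mem_rspan (Elts.xG (F := K) hp.inList) (ho r List.mem_cons_self) 1
    exact h1

include hφ hqq in
/-- **every involution is conjugate into the radical** -/
theorem rep_Q [CharP K 2] (hK : Fintype.card K = q ^ 2) {t : ↥(twistedE6 K q)} (ht : t * t = 1) :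
    ∃ g : ↥(twistedE6 K q), g * t * g⁻¹ ∈ VJ cs isCartan (X φ q) (orth cs isCartan rho) := by
  have FG := foldGrp hφ hqq
  have hle := TwE6Basic.twisted_le_fix φ hφ hqq
  rcases H83.TwESix.exists_rep hK t.2 (congrArg Subtype.val ht) with h | ⟨R, hR, g, hg, e⟩
  · refine ⟨1, ?_⟩
    have h1 : t = 1 := Subtype.ext h
    rw [h1]
    simp
  · refine ⟨⟨g, hg⟩, ?_⟩
    have e' : (((⟨g, hg⟩ : ↥(twistedE6 K q)) * t * (⟨g, hg⟩ : ↥(twistedE6 K q))⁻¹ : ↥(twistedE6 K q)) :
        GL chevE6.Idx K) = H83.ChevInv.PX hp.inList K R := e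
    set u : ↥(twistedE6 K q) := (⟨g, hg⟩ : ↥(twistedE6 K q)) * t * (⟨g, hg⟩ : ↥(twistedE6 K q))⁻¹ with hu
    simp only [H83.TwESix.reps, List.mem_cons, List.not_mem_nil, or_false] at hR
    rcases hR with rfl | rfl | rfl
    · exact mem_VJ cs (z := V chevE6 J 71) (by decide +kernel) (by decide +kernel) (by decide +kernel)
        (mem_X_of (by decide +kernel) (hle u.2) e')
    · exact mem_VJ cs (z := V chevE6 J 66) (by decide +kernel) (by decide +kernel) (by decide +kernel)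
        (mem_X_of (by decide +kernel) (hle u.2) e')
    · have h3 := H83.FoldInv.PX_rl_mem FG H83.TwESix.hx [([1, 2, 1], 0)]
      have h4 : H83.FoldInv.rl chevE6 J [([1, 2, 1], 0)] = [53] := by decide +kernel
      rw [h4] at h3
      let a : ↥(twistedE6 K q) := ⟨_, h3⟩
      have ha : a ∈ VJ cs isCartan (X φ q) (orth cs isCartan rho) :=
        mem_VJ cs (z := V chevE6 J 53) (by decide +kernel) (by decide +kernel) (by decide +kernel)
          (mem_X_of (o := [53]) (by decide +kernel) (hle a.2) rfl)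
      have hb : a⁻¹ * u ∈ VJ cs isCartan (X φ q) (orth cs isCartan rho) := by
        refine mem_VJ cs (z := V chevE6 J 68) (by decide +kernel) (by decide +kernel) (by decide +kernel)
          (mem_X_of (o := [68, 66]) (by decide +kernel) (hle (a⁻¹ * u).2) ?_)
        show (H83.ChevInv.PX hp.inList K [53])⁻¹ * (u : GL chevE6.Idx K) = _
        rw [e', H83.TwESix.PX_one, H83.ChevInv.PX_cons, inv_mul_cancel_left]
      have h5 : u = a * (a⁻¹ * u) := by group
      rw [h5]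
      exact mul_mem ha hb

end Cfsg.Agent.H24.TE
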